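import Mathlib
import Cfsg.Agent.U33.Tab

/-!
The doubly transitive group of degree `28`: the swapping element is determined.
-/

set_option autoImplicit false

namespace Cfsg.Agent.U33

open Cfsg.Agent.Core

theorem allN_iff {p : ℕ → Bool} {k : ℕ} : RTab.allN p k = true ↔ ∀ i < k, p i = true := by
  refine ⟨RTab.allN_spec, fun h => ?_⟩
  induction k with
  | zero => rfl
  | succ k ih =>
    have h1 := h k (Nat.lt_succ_self k)
    have h2 := ih fun i hi => h i (Nat.lt_succ_of_lt hi)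
    change Comp.band (p k) (RTab.allN p k) = true
    rw [h1, h2]; rfl

theorem swap_eq {T : ℕ → ℕ} (hlt : ∀ p < 28, T p < 28) (hinj : ∀ p < 28, ∀ q < 28, T p = T q → p = q)
    (h0 : T 0 = 27) (h27 : T 27 = 0) {i j : ℕ} (hi : i < 16) (hj : j < 16)
    (hk : ∀ p < 28, T (ak 1 p) = ak i (T p)) (hs : ∀ p < 28, T (ak 8 p) = ak j (T p))
    {c m : ℕ} (hc : c < 27) (hm : m < 16)
    (h : ∀ p < 28, T (mq 1 (T p)) = mq (T 1) (T (mq c (ak m p)))) :
    ∃ n < 16, ∀ p < 28, T p = ak n (t0 p) := by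
  have h1 : ∀ n, ∀ p < 28, itr (ak 1) n p < 28 ∧ T (itr (ak 1) n p) = itr (ak i) n (T p) := fun n p hp => by
    induction n with
    | zero => exact ⟨hp, rfl⟩
    | succ n ih => exact ⟨ak_lt 1 (by norm_num) _ ih.1, (hk _ ih.1).trans (congrArg _ ih.2)⟩
  have h2 : ∀ n < 16, ∀ p < 28, T (ak n p) = img i j n (T p) := fun n hn p hp => by
    rw [ak_img n hn p hp, img, img]
    cases Nat.ble 8 n
    · exact (h1 _ p hp).2
    · exact (h1 _ _ (ak_lt 8 (by norm_num) p hp)).2.trans (congrArg _ (hs p hp))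
  have h3 : ∀ p < 28, T p = bld i j (T 1) (T 7) (T 25) p := fun p hp => by
    obtain ⟨a1, a2, a3, a4⟩ := orb_spec p hp
    rw [bld, ← a4, h2 _ a1 _ a3, a4]
    congr 1
    generalize orR p = r at a2
    interval_cases r
    exacts [h0, rfl, rfl, rfl, h27]
  have h4 : ∀ r < 28, okf i j r (T r) = true := fun r hr => allN_iff.2 fun n hn => by
    rw [← h2 n hn r hr, beq_iff_eq, Bool.eq_iff_iff, Nat.beq_eq, Nat.beq_eq]
    exact ⟨congrArg T, hinj _ (ak_lt n hn r hr) _ hr⟩
  have h5 := allN_iff.1 (allN_iff.1 (allN_iff.1 brute i hi) j hj) _ (hlt 1 (by norm_num))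
  rw [h4 1 (by norm_num), Bool.not_true, Bool.false_or] at h5
  replace h5 := allN_iff.1 h5 _ (hlt 7 (by norm_num))
  rw [h4 7 (by norm_num), Bool.not_true, Bool.false_or] at h5
  replace h5 := allN_iff.1 h5 _ (hlt 25 (by norm_num))
  rw [h4 25 (by norm_num), Bool.not_true, Bool.false_or, Bool.or_eq_true] at h5
  generalize bld i j (T 1) (T 7) (T 25) = B at h3 h5
  rcases h5 with h5 | h5
  · exfalso
    replace h5 := allN_iff.1 h5 c hc
    have h6 := h 0 (by norm_num)
    rw [h0, (mq_zero 1 (by norm_num)).2, h27, (ak_zero m hm).1, (mq_zero c hc).1] at h6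
    rw [← h3 1 (by norm_num), ← h3 c (by omega), ← h6, Nat.beq_refl, Bool.not_true, Bool.false_or] at h5
    replace h5 := allN_iff.1 h5 m hm
    rw [allN_iff.2 fun p hp => by
      rw [← h3 p hp, ← h3 _ (mq_lt 1 (by norm_num) _ (hlt p hp)), ← h3 _ (mq_lt c hc _ (ak_lt m hm p hp)),
        Nat.beq_eq]
      exact h p hp] at h5
    exact absurd h5 (by decide)
  · by_contra! h6
    rw [nres, allN_iff.2 fun n hn => by
      obtain ⟨p, hp, h7⟩ := h6 n hn
      rw [Bool.not_eq_true', ← Bool.not_eq_true, allN_iff]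
      exact fun h8 => h7 ((h3 p hp).trans (Nat.beq_eq ▸ h8 p hp))] at h5
    exact absurd h5 (by decide)

end Cfsg.Agent.U33
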