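import Mathlib
import Cfsg.Agent.U33.Br

/-!
The extraspecial group of order `27` and exponent `3` and its automorphisms.
-/

set_option autoImplicit false
set_option maxRecDepth 100000

namespace Cfsg.Agent.U33

open Cfsg.Agent.Core Cfsg.Agent.Comp Subgroup

theorem card_center_27 {X : Type*} [Group X] [Finite X] (hX : Nat.card X = 27) {a b : X} (hab : a * b ≠ b * a) :
    Nat.card (center X) = 3 := by
  have := Fact.mk Nat.prime_three
  have hp : IsPGroup 3 X := IsPGroup.of_card (n := 3) hX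
  have : Nontrivial X := ⟨⟨_, _, hab⟩⟩
  have h1 := (center X).card_mul_index
  have h2 : 1 < Nat.card (center X) := Finite.one_lt_card_iff_nontrivial.2 hp.center_nontrivial
  have h3 : ¬ (center X).index ∣ 3 := fun h => by
    have : IsCyclic (X ⧸ center X) := isCyclic_of_card_dvd_prime (p := 3) h
    exact hab ((isMulCommutative_of_isCyclic_quotient_center_self X).is_comm.comm a b)
  obtain ⟨k, hk, e⟩ := (Nat.dvd_prime_pow Nat.prime_three (m := 3)).1 (show (center X).index ∣ 3 ^ 3 from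
    ⟨_, hX.symm.trans (h1.symm.trans (mul_comm _ _))⟩)
  rw [e] at h1 h3
  interval_cases k <;> omega

theorem comm_mem_center {X : Type*} [Group X] [Finite X] (hX : Nat.card X = 27) (a b : X) :
    a * b * a⁻¹ * b⁻¹ ∈ center X := by
  by_cases hab : a * b = b * a
  · rw [hab]; simp
  have := Fact.mk Nat.prime_three
  have h1 := (center X).card_mul_index
  rw [card_center_27 hX hab, hX] at h1
  have h2 := (IsPGroup.isMulCommutative_of_card_eq_prime_sq (p := 3) (G := X ⧸ center X)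
    (show (center X).index = 3 ^ 2 by omega)).is_comm.comm (a : X ⧸ center X) b
  rw [← QuotientGroup.eq_one_iff]
  simp only [QuotientGroup.mk_mul, QuotientGroup.mk_inv, h2]
  group

theorem q_l : El.l DQ 0 = qa ∧ El.l DQ 2 = qb ∧ El.l DQ 1 = qa⁻¹ ∧ El.l DQ 3 = qb⁻¹ := by decide +kernel

theorem q_ker : ∀ g : El DQ, g = 1 ∨ g = qa * qb * qa⁻¹ * qb⁻¹ ∨ g * g = qa * qb * qa⁻¹ * qb⁻¹ ∨
    ∃ h : El DQ, g * h * g⁻¹ * h⁻¹ = qa * qb * qa⁻¹ * qb⁻¹ := by decide +kernel

theorem q_facts : (∀ g : El DQ, g * g * g = 1) ∧ qa * qb ≠ qb * qa ∧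
    El.sum (fun x : El DQ => El.cnt fun y : El DQ => x * y ≠ y * x) = 432 := by decide +kernel

theorem exists_equiv {X : Type*} [Group X] [Finite X] (hX : Nat.card X = 27) (h3 : ∀ g : X, g ^ 3 = 1) {a b : X}
    (hab : a * b ≠ b * a) : ∃ e : El DQ ≃* X, e qa = a ∧ e qb = b := by
  have hc := mem_center_iff.1 (comm_mem_center hX a b)
  obtain ⟨φ, h1, -⟩ := El.exists_hom (D := DQ) (c := fun i => [a, a⁻¹, b, b⁻¹].getD i 1) (by
    intro w hw
    have ha := h3 a
    have hb := h3 b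
    have h4 := hc a
    have h5 := hc b
    simp only [DQ, RDQ, List.mem_cons, List.not_mem_nil, or_false] at hw
    rcases hw with rfl | rfl | rfl | rfl | rfl | rfl | rfl | rfl <;> simp [ev]
    · rwa [pow_three] at ha
    · rwa [pow_three] at hb
    · calc _ = a * (a * b * a⁻¹ * b⁻¹) * a⁻¹ * (a * b * a⁻¹ * b⁻¹)⁻¹ := by group
        _ = 1 := by rw [h4]; group
    · calc _ = b * (a * b * a⁻¹ * b⁻¹) * b⁻¹ * (a * b * a⁻¹ * b⁻¹)⁻¹ := by group
        _ = 1 := by rw [h5]; group)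
  have ha : φ qa = a := q_l.1 ▸ h1 0 (by decide)
  have hb : φ qb = b := q_l.2.1 ▸ h1 2 (by decide)
  have hz : φ (qa * qb * qa⁻¹ * qb⁻¹) ≠ 1 := fun h => hab (by
    simp only [map_mul, map_inv, ha, hb] at h
    rwa [mul_inv_eq_one, mul_inv_eq_iff_eq_mul] at h)
  have hφ : Function.Injective φ := (injective_iff_map_eq_one φ).2 fun g hg => by
    rcases q_ker g with h | h | h | ⟨k, h⟩
    · exact h
    all_goals exact absurd (by rw [← h]; simp [hg]) hz
  exact ⟨MulEquiv.ofBijective φ (hφ.bijective_of_nat_card_le (by rw [hX, El.card_El]; rfl)), ha, hb⟩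

theorem card_aut : Nat.card (MulAut (El DQ)) = 432 := by
  have h1 := El.card_pairs (D := DQ) (fun _ => True) fun x y => x * y ≠ y * x
  rw [show (El.sum fun x : El DQ => @Bool.rec (fun _ => Nat) (nat_lit 0) (El.cnt fun y => x * y ≠ y * x)
    (decide True)) = 432 from q_facts.2.2] at h1
  rw [← h1]
  refine Nat.card_congr (Equiv.ofBijective (fun α => ⟨(α qa, α qb), trivial, fun h => q_facts.2.1
    (α.injective (by rwa [map_mul, map_mul]))⟩) ⟨fun α β h => ?_, ?_⟩)
  · have h2 : α qa = β qa := congrArg (·.1.1) h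
    have h3 : α qb = β qb := congrArg (·.1.2) h
    refine MulEquiv.toMonoidHom_injective (MonoidHom.eq_of_eqOn_dense (s := {g | ∃ w ∈ Comp.letters DQ.L,
      g = ev (El.l DQ) w}) El.gen_l ?_)
    rintro _ ⟨w, hw, rfl⟩
    have h4 : ∀ w ∈ Comp.letters DQ.L, ev (El.l DQ) w = qa ∨ ev (El.l DQ) w = qb ∨ ev (El.l DQ) w = qa⁻¹ ∨
      ev (El.l DQ) w = qb⁻¹ := by decide +kernel
    rcases h4 w hw with e | e | e | e <;> simp [e, h2, h3]
  · rintro ⟨⟨x, y⟩, -, h⟩
    obtain ⟨e, h2, h3⟩ := exists_equiv (X := El DQ) El.card_El (fun g => by rw [pow_three']; exact q_facts.1 g) h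
    exact ⟨e, Subtype.ext (Prod.ext h2 h3)⟩

/-- the standard automorphisms -/
noncomputable def aut (i : ℕ) (hi : i < 16) : MulAut (El DQ) where
  toFun x := ⟨ak i x.v, ak_lt' i hi _ x.lt⟩
  invFun x := ⟨ak (ki i) x.v, ak_lt' _ (ki_spec i hi).1 _ x.lt⟩
  left_inv x := El.ext' ((ki_spec i hi).2 _ (x.lt.trans (by decide))).1
  right_inv x := El.ext' ((ki_spec i hi).2 _ (x.lt.trans (by decide))).2
  map_mul' x y := El.ext' (((congrArg (ak i) (mul_v x y)).trans (ak_mq i hi _ x.lt _ y.lt)).trans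
    (mul_v ⟨ak i x.v, ak_lt' i hi _ x.lt⟩ ⟨ak i y.v, ak_lt' i hi _ y.lt⟩).symm)

/-- the standard Sylow subgroup -/
def K0 : Subgroup (MulAut (El DQ)) where
  carrier := {α | ∃ i < 16, ∀ x, (α x).v = ak i x.v}
  one_mem' := ⟨0, by norm_num, by decide +kernel⟩
  mul_mem' := by
    rintro α β ⟨i, hi, h1⟩ ⟨j, hj, h2⟩
    exact ⟨km i j, (km_spec i hi j hj).1, fun x => by
      rw [MulAut.mul_apply, h1, h2, (km_spec i hi j hj).2 _ (x.lt.trans (by decide))]⟩
  inv_mem' := by
    rintro α ⟨i, hi, h1⟩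
    refine ⟨ki i, (ki_spec i hi).1, fun x => ?_⟩
    obtain ⟨y, rfl⟩ := α.surjective x
    rw [h1, ((ki_spec i hi).2 _ (y.lt.trans (by decide))).1]
    simp

theorem K0_two : IsPGroup 2 K0 := by
  rintro ⟨α, i, hi, h⟩
  refine ⟨3, Subtype.ext (MulEquiv.ext fun x => El.ext' ?_)⟩
  have h1 : ∀ n, ((α ^ n) x).v = itr (ak i) n x.v := fun n => by
    induction n with
    | zero => rfl
    | succ n ih => rw [pow_succ', MulAut.mul_apply, h, ih]; rfl
  exact (h1 8).trans (ak_pow i hi _ (x.lt.trans (by decide)))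

theorem exists_conj {K : Subgroup (MulAut (El DQ))} (hK : Nat.card K = 16) :
    ∃ β : MulAut (El DQ), ∀ i (hi : i < 16), β⁻¹ * aut i hi * β ∈ K := by
  have := Fact.mk Nat.prime_two
  have : Finite (MulAut (El DQ)) := Nat.finite_of_card_ne_zero (by rw [card_aut]; norm_num)
  obtain ⟨P, hP⟩ := (IsPGroup.of_card (p := 2) (n := 4) hK).exists_le_sylow
  obtain ⟨P0, hP0⟩ := K0_two.exists_le_sylow
  have h1 : K = P := eq_of_le_of_card_ge hP (by
    rw [P.card_eq_multiplicity, card_aut, hK, show 432 = 2 ^ 4 * 27 by norm_num,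
      Nat.factorization_mul (by norm_num) (by norm_num), Nat.prime_two.factorization_pow]
    simp [Nat.factorization_eq_zero_of_not_dvd (show ¬ 2 ∣ 27 by norm_num)])
  obtain ⟨β, hβ⟩ := MulAction.exists_smul_eq (MulAut (El DQ)) P P0
  refine ⟨β, fun i hi => ?_⟩
  have h2 : aut i hi ∈ (P0 : Subgroup _) := hP0 ⟨i, hi, fun _ => rfl⟩
  rw [← hβ, Sylow.coe_subgroup_smul, mem_pointwise_smul_iff_inv_smul_mem] at h2
  rw [h1]
  simpa using h2

end Cfsg.Agent.U33
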