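import Mathlib
import Cfsg.Agent.U33.H
import Cfsg.Agent.Gl23.Ord1

/-!
The doubly transitive group of degree `28` and order `12096`.
-/

set_option autoImplicit false
set_option maxRecDepth 100000
set_option linter.unusedSectionVars false

namespace Cfsg.Agent.U33

open Cfsg.Agent.Core Cfsg.Agent.Comp Subgroup MulAction

variable {G Ω : Type*} [Group G] [MulAction G Ω]

/-- the hypotheses -/
structure TT (Q : Subgroup G) (w o : Ω) : Prop where
  card : Nat.card G = 12096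
  cardΩ : Nat.card Ω = 28
  cardQ : Nat.card Q = 27
  cube : ∀ q : Q, q ^ 3 = 1
  nc : ∃ a b : Q, a * b ≠ b * a
  stab : ∀ g : G, g • w = w ↔ g ∈ normalizer (Q : Set G)
  ne : o ≠ w
  reg : ∀ q ∈ Q, q • o = o → q = 1
  mv : ∃ g : G, g • w = o
  faith : ∀ g : G, (∀ x : Ω, g • x = x) → g = 1

/-- coordinates -/
structure CC (ι : ℕ → Ω) (u κ : ℕ → G) (τ : G) : Prop where
  inj : ∀ p < 28, ∀ q < 28, ι p = ι q → p = q
  surj : ∀ x, ∃ p < 28, ι p = x
  hu : ∀ h < 27, ∀ p < 28, u h • ι p = ι (mq h p)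
  hκ : ∀ i < 16, ∀ p < 28, κ i • ι p = ι (ak i p)
  hτ : ∀ p < 28, τ • ι p = ι (t0 p)
  dec : ∀ g : G, g • ι 27 = ι 27 → ∃ c < 27, ∃ m < 16, g = u c * κ m
  faith : ∀ g : G, (∀ x : Ω, g • x = x) → g = 1

namespace TT

variable [Finite G] {Q : Subgroup G} {w o : Ω} (h : TT Q w o)
include h

theorem fix {q : G} (hq : q ∈ Q) : q • w = w := (h.stab q).2 (le_normalizer hq)

theorem smul_ne {g : G} (hg : g • w = w) : g • o ≠ w := fun e => h.ne (smul_left_cancel g (e.trans hg.symm))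

theorem tr {x : Ω} (hx : x ≠ w) : ∃ q ∈ Q, q • o = x := by
  have : Finite Ω := Nat.finite_of_card_ne_zero (by rw [h.cardΩ]; norm_num)
  let f : Option Q → Ω := fun q => q.elim w fun q => (q : G) • o
  have h1 : Function.Injective f := by
    rintro (_ | a) (_ | b) e
    · rfl
    · exact absurd e.symm (h.smul_ne (h.fix b.2))
    · exact absurd e (h.smul_ne (h.fix a.2))
    · have := h.reg (b⁻¹ * a : Q) (b⁻¹ * a).2 (by
        rw [coe_mul, coe_inv, mul_smul, inv_smul_eq_iff]; exact e)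
      rw [inv_mul_eq_one.1 (Subtype.ext this : b⁻¹ * a = 1)]
  obtain ⟨_ | q, e⟩ := (h1.bijective_of_nat_card_le (by rw [h.cardΩ, Finite.card_option, h.cardQ])).2 x
  · exact absurd e.symm hx
  · exact ⟨q, q.2, e⟩

theorem cardK : Nat.card ↥(stabilizer G w ⊓ stabilizer G o) = 16 := by
  have h1 := (stabilizer G w).card_mul_index
  have h2 : orbit G w = Set.univ := Set.eq_univ_of_forall fun x => by
    by_cases hx : x = w
    · exact hx ▸ mem_orbit_self _
    · obtain ⟨q, -, rfl⟩ := h.tr hx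
      obtain ⟨g, rfl⟩ := h.mv
      exact ⟨q * g, mul_smul _ _ _⟩
  rw [index_stabilizer, h2, Set.ncard_univ, h.cardΩ, h.card] at h1
  have h3 : Nat.card (Q × ↥(stabilizer G w ⊓ stabilizer G o)) = Nat.card (stabilizer G w) :=
    Nat.card_congr (Equiv.ofBijective (fun p => ⟨p.1 * p.2, mul_mem (h.fix p.1.2) p.2.2.1⟩) ⟨by
      rintro ⟨a, k⟩ ⟨b, l⟩ e
      have e' : (a : G) * k = b * l := congrArg Subtype.val e
      have h4 := congrArg (· • o) e'
      simp only [mul_smul, show (k : G) • o = o from k.2.2, show (l : G) • o = o from l.2.2] at h4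
      obtain rfl := inv_mul_eq_one.1 (Subtype.ext (h.reg (b⁻¹ * a : Q) (b⁻¹ * a).2 (by
        rw [coe_mul, coe_inv, mul_smul, inv_smul_eq_iff]; exact h4)) : b⁻¹ * a = 1)
      rw [Subtype.ext (mul_left_cancel e' : (k : G) = l)], fun g => by
      obtain ⟨q, hq, e⟩ := h.tr (h.smul_ne g.2)
      exact ⟨⟨⟨q, hq⟩, q⁻¹ * g, mem_inf.2 ⟨mul_mem (inv_mem (show q ∈ stabilizer G w from h.fix hq)) g.2,
        mem_stabilizer_iff.2 (by rw [mul_smul, ← e, inv_smul_smul])⟩⟩,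
        Subtype.ext (mul_inv_cancel_left _ _)⟩⟩)
  rw [Nat.card_prod, h.cardQ] at h3
  omega

theorem eq_one {k : G} (h1 : k • w = w) (h2 : k • o = o) (h3 : ∀ q ∈ Q, k * q = q * k) : k = 1 :=
  h.faith k fun x => by
    by_cases hx : x = w
    · rw [hx, h1]
    · obtain ⟨q, hq, rfl⟩ := h.tr hx
      rw [← mul_smul, h3 q hq, mul_smul, h2]

theorem exists_e : ∃ (e : El DQ ≃* Q) (κ : ℕ → G), (∀ i (hi : i < 16), (κ i • w = w ∧ κ i • o = o) ∧
    ∀ x, (e (aut i hi x) : G) = κ i * e x * (κ i)⁻¹) ∧ ∀ k : G, k • w = w → k • o = o → ∃ i < 16, k = κ i := by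
  obtain ⟨a, b, hab⟩ := h.nc
  obtain ⟨e, -⟩ := exists_equiv h.cardQ h.cube hab
  have hle : stabilizer G w ⊓ stabilizer G o ≤ normalizer (Q : Set G) := fun k hk => (h.stab k).1 hk.1
  let ψ := (MulAut.congr e.symm).toMonoidHom.comp (Q.normalizerMonoidHom.comp (inclusion hle))
  have hψ : ∀ k x, (e (ψ k x) : G) = k * e x * (k : G)⁻¹ := fun k x => by
    simp [ψ, normalizerMonoidHom, MulAut.congr_apply, HSMul.hSMul, SMul.smul]
  have hinj : Function.Injective ψ := (injective_iff_map_eq_one ψ).2 fun k hk =>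
    Subtype.ext (h.eq_one k.2.1 k.2.2 fun q hq => by
      have := hψ k (e.symm ⟨q, hq⟩)
      rw [hk, MulAut.one_apply, e.apply_symm_apply] at this
      exact mul_inv_eq_iff_eq_mul.1 this.symm)
  obtain ⟨β, hβ⟩ := exists_conj (K := ψ.range) (by
    rw [← h.cardK]; exact (Nat.card_congr (MonoidHom.ofInjective hinj).toEquiv).symm)
  choose k hk using hβ
  have h1 : Function.Injective fun i : Fin 16 => k i i.2 := fun i j e => Fin.ext (ak_inj i i.2 j j.2 fun p hp => by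
    have h2 := (hk i i.2).symm.trans ((congrArg ψ e).trans (hk j j.2))
    rw [mul_left_inj, mul_right_inj] at h2
    exact congrArg (fun α : MulAut (El DQ) => (α ⟨p, hp⟩).v) h2)
  refine ⟨β.symm.trans e, fun i => if hi : i < 16 then k i hi else 1, fun i hi => ?_, fun g h2 h3 => ?_⟩
  · beta_reduce
    rw [dif_pos hi]
    refine ⟨(k i hi).2, fun x => ?_⟩
    rw [MulEquiv.trans_apply, MulEquiv.trans_apply, ← hψ, hk]
    simp [MulAut.inv_def]
  · obtain ⟨i, hi⟩ := (h1.bijective_of_nat_card_le (by rw [h.cardK]; simp)).2 ⟨g, h2, h3⟩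
    exact ⟨i, i.2, by beta_reduce; rw [dif_pos i.2]; exact (congrArg Subtype.val hi).symm⟩

theorem exists_cc : ∃ (ι : ℕ → Ω) (u κ : ℕ → G) (τ : G), CC ι u κ τ := by
  obtain ⟨e, κ, hκ, hK⟩ := h.exists_e
  let u : ℕ → G := fun p => if hp : p < 27 then e ⟨p, hp⟩ else 1
  have hu : ∀ x : El DQ, u x.v = e x := fun x => dif_pos x.lt
  have huQ : ∀ p, u p ∈ Q := fun p => by
    by_cases hp : p < 27
    · exact hu ⟨p, hp⟩ ▸ (e _).2
    · simp [u, hp]
  let ι : ℕ → Ω := fun p => if p < 27 then u p • o else w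
  have h27 : ι 27 = w := rfl
  have hι : ∀ p < 27, ι p = u p • o := fun p hp => if_pos hp
  have h0 : ι 0 = o := by
    rw [hι 0 (by norm_num), show u 0 = e 1 from hu 1, map_one]; exact one_smul _ _
  have hc : ∀ p < 28, p < 27 ∨ p = 27 := fun p hp => by omega
  have hinj : ∀ p < 28, ∀ q < 28, ι p = ι q → p = q := fun p hp q hq e' => by
    rcases hc p hp with hp | rfl <;> rcases hc q hq with hq | rfl
    · rw [hι p hp, hι q hq, ← inv_smul_eq_iff, ← mul_smul, eq_comm, eq_comm] at e'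
      have := inv_mul_eq_one.1 (h.reg _ (mul_mem (inv_mem (huQ q)) (huQ p)) e')
      rw [hu ⟨p, hp⟩, hu ⟨q, hq⟩] at this
      exact (congrArg El.v (e.injective (Subtype.ext this))).symm
    · exact absurd ((hι p hp).symm.trans e') (h.smul_ne (h.fix (huQ p)))
    · exact absurd ((hι q hq).symm.trans e'.symm) (h.smul_ne (h.fix (huQ q)))
    · rfl
  have hq : ∀ q ∈ Q, ∃ p < 27, q = u p := fun q hq =>
    ⟨_, (e.symm ⟨q, hq⟩).lt, by rw [hu, e.apply_symm_apply]⟩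
  have hsurj : ∀ x, ∃ p < 28, ι p = x := fun x => by
    by_cases hx : x = w
    · exact ⟨27, by norm_num, hx.symm⟩
    · obtain ⟨q, h1, rfl⟩ := h.tr hx
      obtain ⟨p, hp, rfl⟩ := hq q h1
      exact ⟨p, by omega, hι p hp⟩
  have au : ∀ c < 27, ∀ p < 28, u c • ι p = ι (mq c p) := fun c hc' p hp => by
    rcases hc p hp with hp | rfl
    · rw [← mul_v ⟨c, hc'⟩ ⟨p, hp⟩, hι _ ((⟨c, hc'⟩ * ⟨p, hp⟩ : El DQ).lt), hu, hι p hp, map_mul, coe_mul, mul_smul, ← hu, ← hu]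
    · rw [(mq_zero c hc').2, h27, h.fix (huQ c)]
  have aκ : ∀ i < 16, ∀ p < 28, κ i • ι p = ι (ak i p) := fun i hi p hp => by
    rcases hc p hp with hp | rfl
    · rw [hι _ (ak_lt' i hi p hp), show u (ak i p) = _ from hu (aut i hi ⟨p, hp⟩), (hκ i hi).2, hι p hp,
        hu ⟨p, hp⟩, mul_smul, mul_smul, inv_smul_eq_iff.2 (hκ i hi).1.2.symm]
    · rw [(ak_zero i hi).2, h27, (hκ i hi).1.1]
  have dec : ∀ g : G, g • w = w → ∃ c < 27, ∃ m < 16, g = u c * κ m := fun g hg => by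
    obtain ⟨q, h1, e'⟩ := h.tr (h.smul_ne hg)
    obtain ⟨m, hm, h2⟩ := hK (q⁻¹ * g) (by rw [mul_smul, hg, h.fix (inv_mem h1)])
      (by rw [mul_smul, ← e', inv_smul_smul])
    obtain ⟨c, hc, rfl⟩ := hq q h1
    exact ⟨c, hc, m, hm, by rw [← h2, mul_inv_cancel_left]⟩
  obtain ⟨τ, t1, t2⟩ : ∃ τ : G, τ • w = o ∧ τ • o = w := by
    obtain ⟨g, hg⟩ := h.mv
    obtain ⟨q, h1, e'⟩ := h.tr (x := g⁻¹ • w) fun e' => h.ne (by rw [← hg, inv_smul_eq_iff.1 e', ← inv_smul_eq_iff.1 e',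
      ← inv_smul_eq_iff.1 e'])
    exact ⟨g * q, by rw [mul_smul, h.fix h1, hg], by rw [mul_smul, e', smul_inv_smul]⟩
  choose T hT hT' using fun p => hsurj (τ • ι p)
  have T0 : T 0 = 27 := hinj _ (hT 0) _ (by norm_num) (by rw [hT', h0, t2, h27])
  have T27 : T 27 = 0 := hinj _ (hT 27) _ (by norm_num) (by rw [hT', h0, h27, t1])
  have Tinj : ∀ p < 28, ∀ q < 28, T p = T q → p = q := fun p hp q hq e' =>
    hinj p hp q hq (smul_left_cancel τ (by rw [← hT', ← hT', e']))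
  have hcj : ∀ n < 16, ∃ i < 16, ∀ p < 28, T (ak n p) = ak i (T p) := fun n hn => by
    obtain ⟨i, hi, e'⟩ := hK (τ * κ n * τ⁻¹)
      (by rw [mul_smul, mul_smul, inv_smul_eq_iff.2 t2.symm, (hκ n hn).1.2, t2])
      (by rw [mul_smul, mul_smul, inv_smul_eq_iff.2 t1.symm, (hκ n hn).1.1, t1])
    refine ⟨i, hi, fun p hp => hinj _ (hT _) _ (ak_lt i hi _ (hT _)) ?_⟩
    rw [hT', ← aκ n hn p hp, ← aκ i hi _ (hT _), hT', ← e', mul_smul, mul_smul, inv_smul_smul]
  obtain ⟨i, hi, h1⟩ := hcj 1 (by norm_num)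
  obtain ⟨j, hj, h2⟩ := hcj 8 (by norm_num)
  have T1 : T 1 < 27 := (hc _ (hT 1)).resolve_right fun e' =>
    absurd (Tinj 1 (by norm_num) 0 (by norm_num) (e'.trans T0.symm)) (by norm_num)
  obtain ⟨c, hc', m, hm, h3⟩ := dec (τ⁻¹ * (u (T 1))⁻¹ * τ * u 1 * τ) (by
    rw [mul_smul, mul_smul, mul_smul, mul_smul, t1, ← hι 1 (by norm_num), ← hT', hι _ T1, inv_smul_smul,
      inv_smul_eq_iff, t1])
  obtain ⟨n, hn, h4⟩ := swap_eq (fun p _ => hT p) Tinj T0 T27 hi hj h1 h2 hc' hm fun p hp => by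
    refine hinj _ (hT _) _ (mq_lt _ T1 _ (hT _)) ?_
    rw [hT', ← au 1 (by norm_num) _ (hT _), hT', ← au _ T1 _ (hT _), hT', ← au c hc' _ (ak_lt m hm p hp),
      ← aκ m hm p hp, ← mul_smul (u c), ← h3]
    simp [mul_smul]
  exact ⟨ι, u, κ, (κ n)⁻¹ * τ, hinj, hsurj, au, aκ, fun p hp => by
    rw [mul_smul, ← hT', h4 p hp, ← aκ n hn _ (t0_lt p hp), inv_smul_smul], dec, h.faith⟩

end TT

/-- the model -/
def E0 : Subgroup (Equiv.Perm (Fin 28)) := closure {σ | (∃ h < 27, ∀ p, (σ p : ℕ) = mq h p) ∨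
  (∃ i < 16, ∀ p, (σ p : ℕ) = ak i p) ∨ ∀ p, (σ p : ℕ) = t0 p}

theorem t_facts : t0 27 = 0 ∧ (∀ m < 16, (∀ p < 28, ak m (t0 (ak m (t0 p))) = p) →
    Fintype.card {p : Fin 28 // ak m (t0 p) = p} = 4) ∧ ∀ c < 27, mq c 0 = c := by decide +kernel

theorem mq0 : ∀ q < 28, mq 0 q = q := by decide +kernel

namespace CC

variable {ι : ℕ → Ω} {u κ : ℕ → G} {τ : G} (h : CC ι u κ τ)
include h

/-- the coordinates as an equivalence -/
noncomputable def eqv : Fin 28 ≃ Ω := Equiv.ofBijective (fun p => ι p)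
  ⟨fun p q e => Fin.ext (h.inj p p.2 q q.2 e), fun x => let ⟨p, hp, e⟩ := h.surj x; ⟨⟨p, hp⟩, e⟩⟩

theorem dec' {g : G} (hg : g • ι 27 ≠ ι 27) : ∃ c < 27, g • ι 27 = ι c ∧ (τ⁻¹ * (u c)⁻¹ * g) • ι 27 = ι 27 := by
  obtain ⟨c, hc, e⟩ := h.surj (g • ι 27)
  have hc' : c < 27 := lt_of_le_of_ne (by omega) fun e' => hg (by rw [← e, e'])
  refine ⟨c, hc', e.symm, ?_⟩
  rw [mul_smul, mul_smul, ← e, inv_smul_eq_iff, inv_smul_eq_iff, h.hτ 27 (by norm_num), t_facts.1,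
    h.hu c hc' 0 (by norm_num), t_facts.2.2 c hc']

theorem equiv : Nonempty (G ≃* E0) := by
  let ρ : G →* Equiv.Perm (Fin 28) := h.eqv.symm.permCongrHom.toMonoidHom.comp (toPermHom G Ω)
  have hρ : ∀ g (p : Fin 28) n, n < 28 → g • ι p = ι n → (ρ g p : ℕ) = n := fun g p n hn e => by
    have : ρ g p = ⟨n, hn⟩ := h.eqv.symm_apply_eq.2 e
    rw [this]
  have h1 : Function.Injective ρ := h.eqv.symm.permCongrHom.injective.comp
    ((injective_iff_map_eq_one _).2 fun g hg => h.faith g fun x => congrArg (· x) hg)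
  have ru := fun c hc (p : Fin 28) => hρ _ p _ (mq_lt c hc p p.2) (h.hu c hc p p.2)
  have rκ := fun c hc (p : Fin 28) => hρ _ p _ (ak_lt c hc p p.2) (h.hκ c hc p p.2)
  have rτ := fun (p : Fin 28) => hρ _ p _ (t0_lt p p.2) (h.hτ p p.2)
  have h2 : ρ.range = E0 := by
    refine le_antisymm ?_ ((closure_le _).2 ?_)
    · rintro _ ⟨g, rfl⟩
      have mu : ∀ c < 27, ρ (u c) ∈ E0 := fun c hc => subset_closure (Or.inl ⟨c, hc, ru c hc⟩)
      have h3 : ∀ g : G, g • ι 27 = ι 27 → ρ g ∈ E0 := fun g hg => by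
        obtain ⟨c, hc, m, hm, rfl⟩ := h.dec g hg
        rw [map_mul]
        exact mul_mem (mu c hc) (subset_closure (Or.inr (Or.inl ⟨m, hm, rκ m hm⟩)))
      by_cases hg : g • ι 27 = ι 27
      · exact h3 g hg
      · obtain ⟨c, hc, -, e⟩ := h.dec' hg
        rw [show g = u c * τ * (τ⁻¹ * (u c)⁻¹ * g) by group, map_mul, map_mul]
        exact mul_mem (mul_mem (mu c hc) (subset_closure (Or.inr (Or.inr rτ)))) (h3 _ e)
    · rintro σ (⟨c, hc, e⟩ | ⟨c, hc, e⟩ | e)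
      · exact ⟨u c, Equiv.ext fun p => Fin.ext ((ru c hc p).trans (e p).symm)⟩
      · exact ⟨κ c, Equiv.ext fun p => Fin.ext ((rκ c hc p).trans (e p).symm)⟩
      · exact ⟨τ, Equiv.ext fun p => Fin.ext ((rτ p).trans (e p).symm)⟩
  exact ⟨(MonoidHom.ofInjective h1).trans (MulEquiv.subgroupCongr h2)⟩

theorem no14 [Finite G] (hG : Nat.card G = 12096) (g : G) : orderOf g ≠ 14 := fun hg => by
  have : Finite Ω := Finite.of_equiv _ h.eqv
  have hΩ : Nat.card Ω = 28 := by rw [← Nat.card_congr h.eqv]; simp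
  have htr : ∀ y : Ω, ∃ a : G, a • ι 0 = y := fun y => by
    obtain ⟨p, hp, rfl⟩ := h.surj y
    by_cases e : p < 27
    · exact ⟨u p, by rw [h.hu p e 0 (by norm_num), t_facts.2.2 p e]⟩
    · exact ⟨τ⁻¹, by rw [inv_smul_eq_iff, show p = 27 by omega, h.hτ 27 (by norm_num), t_facts.1]⟩
  have o7 : orderOf (g ^ 2) = 7 := by rw [orderOf_pow_of_dvd (by norm_num) (by rw [hg]; norm_num), hg]
  have o2 : orderOf (g ^ 7) = 2 := by rw [orderOf_pow_of_dvd (by norm_num) (by rw [hg]; norm_num), hg]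
  have hx : ∀ y : Ω, (g ^ 2) • y ≠ y := fun y e => by
    have h1 := (stabilizer G y).card_mul_index
    have h2 : orbit G y = Set.univ := Set.eq_univ_of_forall fun z => by
      obtain ⟨a, rfl⟩ := htr y
      obtain ⟨b, rfl⟩ := htr z
      exact ⟨b * a⁻¹, by simp [mul_smul]⟩
    rw [index_stabilizer, h2, Set.ncard_univ, hΩ, hG] at h1
    have h3 := (stabilizer G y).orderOf_dvd_natCard e
    rw [o7, show Nat.card (stabilizer G y) = 432 by omega] at h3
    omega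
  have key : ∀ s : G, orderOf s = 2 → Nat.card (fixedBy Ω s) = 4 := by
    have k1 : ∀ s : G, orderOf s = 2 → s • ι 27 = ι 0 → Nat.card (fixedBy Ω s) = 4 := fun s hs e => by
      have ss : ∀ y : Ω, s • s • y = y := fun y => by
        rw [← mul_smul, ← pow_two, ← hs, pow_orderOf_eq_one, one_smul]
      have t27 : τ • ι 27 = ι 0 := by rw [h.hτ 27 (by norm_num), t_facts.1]
      have t00 : τ • ι 0 = ι 27 := by rw [h.hτ 0 (by norm_num)]; rfl
      obtain ⟨c, hc, m, hm, e1⟩ := h.dec (s * τ⁻¹) (by rw [mul_smul, inv_smul_eq_iff.2 t00.symm, ← e, ss])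
      have e2 : (s * τ⁻¹) • ι 0 = ι 0 := by rw [mul_smul, inv_smul_eq_iff.2 t27.symm, e]
      rw [e1, mul_smul, h.hκ m hm 0 (by norm_num), (ak_zero m hm).1, h.hu c hc 0 (by norm_num),
        t_facts.2.2 c hc] at e2
      obtain rfl := h.inj c (by omega) 0 (by norm_num) e2
      have e3 : ∀ p < 28, s • ι p = ι (ak m (t0 p)) := fun p hp => by
        rw [mul_inv_eq_iff_eq_mul.1 e1, mul_smul, mul_smul, h.hτ p hp, h.hκ m hm _ (t0_lt p hp),
          h.hu 0 hc _ (ak_lt m hm _ (t0_lt p hp)), mq0 _ (ak_lt m hm _ (t0_lt p hp))]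
      have lt : ∀ p < 28, ak m (t0 p) < 28 := fun p hp => ak_lt m hm _ (t0_lt p hp)
      rw [← t_facts.2.1 m hm fun p hp => h.inj _ (lt _ (lt p hp)) p hp (by rw [← e3 _ (lt p hp), ← e3 p hp, ss]),
        ← Nat.card_eq_fintype_card]
      exact (Nat.card_congr (h.eqv.subtypeEquiv fun p => ⟨fun e => by
        show s • ι p = ι p
        rw [e3 p p.2, e], fun e => h.inj _ (lt p p.2) p p.2 ((e3 p p.2).symm.trans e)⟩)).symm
    intro s hs
    obtain ⟨y, hy⟩ : ∃ y : Ω, s • y ≠ y := by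
      by_contra hc
      push Not at hc
      rw [h.faith s hc, orderOf_one] at hs
      omega
    obtain ⟨a, rfl⟩ := htr y
    have t27 : τ • ι 27 = ι 0 := by rw [h.hτ 27 (by norm_num), t_facts.1]
    obtain ⟨c, hc, e, -⟩ := h.dec' (g := (a * τ)⁻¹ * s * (a * τ)) (by
      rw [mul_smul, mul_smul, Ne, inv_smul_eq_iff, mul_smul, t27]; exact hy)
    have h1 := k1 ((a * τ * u c)⁻¹ * s * (a * τ * u c)) (by
      rw [← hs]; exact (SemiconjBy.orderOf_eq (a * τ * u c) (by simp [SemiconjBy, mul_assoc])))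
      (by rw [mul_inv_rev, mul_smul, mul_smul, mul_smul, mul_smul (a * τ), h.hu c hc 27 (by norm_num),
        (mq_zero c hc).2, inv_smul_eq_iff, h.hu c hc 0 (by norm_num), t_facts.2.2 c hc, ← e]; simp only [mul_smul])
    rw [← h1]
    exact Nat.card_congr ((MulAction.toPerm (a * τ * u c)⁻¹).subtypeEquiv fun y => by
      simp [mem_fixedBy, mul_smul])
  have h4 := Gl23.card_fixedBy_modEq (Ω := Ω) (p := 7) (by norm_num) (x := g ^ 2) (y := g ^ 7)
    (by rw [← o7, pow_orderOf_eq_one]) (by rw [← pow_add, ← pow_add])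
  rw [key _ o2, show fixedBy Ω (g ^ 2) = ∅ from Set.eq_empty_of_forall_notMem hx, Set.inter_empty] at h4
  simp [Nat.ModEq] at h4

end CC

end Cfsg.Agent.U33
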