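import Mathlib
import Cfsg.Agent.U33.T

/-!
Elementary consequences of the rational character of degree `6` of a simple group of order `6048`.
-/

set_option autoImplicit false

namespace Cfsg.Agent.U33

/-- the values `v` of the character of degree `6` -/
structure CV {G : Type*} [Group G] (v : G → ℤ) : Prop where
  card : Nat.card G = 6048
  cls : ∀ g x : G, v (g * x * g⁻¹) = v x
  inv : ∀ x : G, v x⁻¹ = v x
  one : v 1 = 6
  three : ∀ w : G, orderOf w = 3 → v w = 3 ∨ v w = 0 ∨ v w = -3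
  sum : ∀ (D : Subgroup G) [Fintype D], ∃ n : ℕ, ∑ d : D, v d = Nat.card D * n
  sq : ∀ (D : Subgroup G) [Fintype D], ∃ n : ℕ, ∑ d : D, v d ^ 2 = Nat.card D * n
  rank2 : ∀ a b : G, orderOf a = 3 → orderOf b = 3 → a * b = b * a →
    ∃ n : ℕ, 6 + 2 * (v a + v b + v (a * b) + v (a * b ^ 2)) = 9 * n
  noinv : ∀ u : G, orderOf u = 2 → ∀ D : Subgroup G, Nat.card D = 9 → (∀ d ∈ D, d * u = u * d) → False
  odd : ∀ u w : G, orderOf u = 2 → orderOf w = 3 → u * w = w * u → v w ≠ 0
  seven : ∀ g : G, 7 ∣ orderOf g → orderOf g = 7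

end Cfsg.Agent.U33
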