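import Mathlib
import Cfsg.Agent.U33.T

/-!
From a simple normal subgroup of order `6048` to the doubly transitive action of degree `28`.
-/

set_option autoImplicit false

namespace Cfsg.Agent.U33

open Subgroup MulAction

theorem p3_norm {G : Type*} [Group G] (L : Subgroup G) (Q : Subgroup L) (g : L) :
    (g : G) ∈ normalizer ((Q.map L.subtype : Subgroup G) : Set G) ↔ g ∈ normalizer (Q : Set L) := by
  rw [mem_normalizer_iff, mem_normalizer_iff]
  have key : ∀ y : L, (y : G) ∈ Q.map L.subtype ↔ y ∈ Q := fun y =>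
    mem_map_iff_mem (f := L.subtype) L.subtype_injective
  constructor
  · intro h y
    have := h y
    rw [key] at this
    rw [this, ← key]
    rfl
  · intro h y
    constructor
    · rintro ⟨z, hz, rfl⟩
      exact ⟨g * z * g⁻¹, (h z).1 hz, rfl⟩
    · rintro ⟨z, hz, e⟩
      have h1 : g * (g⁻¹ * z * g) * g⁻¹ = z := by group
      refine ⟨g⁻¹ * z * g, (h _).2 (h1.symm ▸ hz), ?_⟩
      have e' : (z : G) = g * y * (g : G)⁻¹ := e
      change (g : G)⁻¹ * z * g = y
      rw [e']; group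

theorem toTT {G : Type*} [Group G] [Finite G] (hG : Nat.card G = 12096) (L : Subgroup G) [L.Normal]
    (hs : IsSimpleGroup L) (hL : Nat.card L = 6048) (hC : Subgroup.centralizer (L : Set G) = ⊥)
    (Q : Sylow 3 L) (h9 : ∀ g : G, orderOf g ≠ 9) (nc : ∃ a b : Q, a * b ≠ b * a)
    (hN : (Subgroup.normalizer ((Q : Subgroup L) : Set L)).index = 28) (x : L)
    (hx : (Q : Subgroup L) ⊓ (Q : Subgroup L).map (MulAut.conj x).toMonoidHom = ⊥) :
    ∃ (R : Subgroup G) (o : G ⧸ Subgroup.normalizer (R : Set G)),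
      TT R ((1 : G) : G ⧸ Subgroup.normalizer (R : Set G)) o := by
  haveI : Fact (Nat.Prime 3) := ⟨Nat.prime_three⟩
  have hQ : Nat.card (Q : Subgroup L) = 27 := by
    rw [Q.card_eq_multiplicity, hL]
    have : (6048 : ℕ).factorization 3 = 3 := by
      rw [show (6048 : ℕ) = 3 ^ 3 * 224 by norm_num, Nat.factorization_mul (by norm_num) (by norm_num),
        Finsupp.add_apply, Nat.prime_three.factorization_pow, Finsupp.single_eq_same,
        Nat.factorization_eq_zero_of_not_dvd (by norm_num)]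
    rw [this]; norm_num
  set R : Subgroup G := (Q : Subgroup L).map L.subtype with hR
  set N : Subgroup G := normalizer (R : Set G) with hNdef
  have hRc : Nat.card R = 27 := by rw [hR, card_map_of_injective L.subtype_injective, hQ]
  have hsub : N.subgroupOf L = normalizer ((Q : Subgroup L) : Set L) := by
    ext g
    rw [mem_subgroupOf]
    exact p3_norm L Q g
  have hstab : ∀ g : G, g • ((1 : G) : G ⧸ N) = ((1 : G) : G ⧸ N) ↔ g ∈ N := fun g => by
    rw [MulAction.Quotient.smul_coe, QuotientGroup.eq, smul_eq_mul, mul_one, mul_one, inv_mem_iff]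
  have hxN : (x : G) ∉ N := fun h => by
    have h1 : x ∈ normalizer ((Q : Subgroup L) : Set L) := (p3_norm L Q x).1 h
    have h2 : (Q : Subgroup L) = ⊥ := by
      rw [← hx]
      refine (inf_eq_left.2 fun y hy => ?_).symm
      refine ⟨x⁻¹ * y * x, ?_, by simp [mul_assoc]⟩
      have := (mem_normalizer_iff.1 h1 (x⁻¹ * y * x)).2 (by
        rwa [show x * (x⁻¹ * y * x) * x⁻¹ = y by group])
      exact this
    rw [h2, card_bot] at hQ
    omega
  refine ⟨R, ((x : G) : G ⧸ N), ⟨hG, ?_, hRc, ?_, ?_, hstab, ?_, ?_, ⟨x, ?_⟩, ?_⟩⟩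
  · have h1 : N ⊔ L = ⊤ := Sylow.normalizer_sup_eq_top Q
    have h2 : L.relIndex N = 2 := by
      rw [← relIndex_sup_right N L, h1, relIndex_top_right]
      have := L.card_mul_index
      rw [hL, hG] at this
      omega
    have h3 : N.relIndex L = 28 := by rw [relIndex, hsub, hN]
    have h4 := relIndex_mul_index (inf_le_left : N ⊓ L ≤ N)
    have h5 := relIndex_mul_index (inf_le_right : N ⊓ L ≤ L)
    rw [inf_relIndex_left] at h4
    rw [inf_relIndex_right] at h5
    have h6 := L.card_mul_index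
    rw [hL, hG] at h6
    have h7 : L.index = 2 := by omega
    rw [h3, h7] at h5
    rw [h2, ← h5] at h4
    change N.index = 28
    omega
  · intro q
    have h1 : orderOf q ∣ 3 ^ 3 := by
      rw [show 3 ^ 3 = 27 by norm_num, ← hRc]; exact orderOf_dvd_natCard q
    obtain ⟨k, hk, e⟩ := (Nat.dvd_prime_pow Nat.prime_three).1 h1
    rw [← orderOf_dvd_iff_pow_eq_one, e]
    interval_cases k
    · norm_num
    · norm_num
    · exact absurd ((orderOf_coe q).trans e) (h9 _)
    · refine absurd ?_ (h9 ((q : G) ^ 3))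
      rw [orderOf_pow, orderOf_coe, e]
      norm_num
  · obtain ⟨a, b, hab⟩ := nc
    refine ⟨⟨(a : L), mem_map_of_mem _ a.2⟩, ⟨(b : L), mem_map_of_mem _ b.2⟩, fun e => hab ?_⟩
    have e' : ((a : L) : G) * ((b : L) : G) = ((b : L) : G) * ((a : L) : G) := congrArg Subtype.val e
    exact Subtype.ext (Subtype.ext e')
  · intro e
    rw [QuotientGroup.eq, mul_one, inv_mem_iff] at e
    exact hxN e
  · rintro _ ⟨q, hq, rfl⟩ e
    rw [MulAction.Quotient.smul_coe, QuotientGroup.eq, smul_eq_mul] at e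
    have h1 : x⁻¹ * q⁻¹ * x ∈ normalizer ((Q : Subgroup L) : Set L) := by
      refine (p3_norm L Q _).1 ?_
      have e' : ((x⁻¹ * q⁻¹ * x : L) : G) ∈ N := by simpa [mul_assoc] using e
      exact e'
    have h2 : IsPGroup 3 (zpowers (x⁻¹ * q⁻¹ * x)) := by
      obtain ⟨k, hk⟩ := Q.isPGroup' ⟨q, hq⟩
      have hk' : q ^ 3 ^ k = 1 := congrArg Subtype.val hk
      refine fun y => ⟨k, ?_⟩
      obtain ⟨_, m, rfl⟩ := y
      refine Subtype.ext ?_
      change ((x⁻¹ * q⁻¹ * x) ^ m) ^ 3 ^ k = 1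
      have h3 : (x⁻¹ * q⁻¹ * x) ^ 3 ^ k = 1 := by
        have := conj_pow (a := x⁻¹) (b := q⁻¹) (i := 3 ^ k)
        rw [inv_inv] at this
        rw [this, inv_pow, hk']; group
      rw [← zpow_natCast, ← zpow_mul, mul_comm, zpow_mul, zpow_natCast, h3, one_zpow]
    have h3 := h2.inf_normalizer_sylow Q
    have h4 : x⁻¹ * q⁻¹ * x ∈ (Q : Subgroup L) := by
      have : x⁻¹ * q⁻¹ * x ∈ zpowers (x⁻¹ * q⁻¹ * x) ⊓ (Q : Subgroup L) := h3 ▸ ⟨mem_zpowers _, h1⟩
      exact this.2
    have h5 : q⁻¹ ∈ (⊥ : Subgroup L) := by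
      rw [← hx]
      exact ⟨(Q : Subgroup L).inv_mem hq, x⁻¹ * q⁻¹ * x, h4, by simp [mul_assoc]⟩
    rw [inv_mem_iff, mem_bot] at h5
    rw [h5]; rfl
  · rw [MulAction.Quotient.smul_coe, smul_eq_mul, mul_one]
  · intro g hg
    let K := (MulAction.toPermHom G (G ⧸ N)).ker
    have hgK : g ∈ K := Equiv.ext hg
    rcases hs.eq_bot_or_eq_top_of_normal (K.subgroupOf L) inferInstance with h | h
    · have h1 : Disjoint K L := subgroupOf_eq_bot.1 h
      rw [← mem_bot, ← hC]
      intro y hy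
      exact (commute_of_normal_of_disjoint K L inferInstance inferInstance h1 g y hgK hy).symm
    · have h1 : x ∈ K.subgroupOf L := h ▸ mem_top x
      exact absurd ((hstab x).1 (Equiv.congr_fun (MonoidHom.mem_ker.1 (mem_subgroupOf.1 h1))
        ((1 : G) : G ⧸ N))) hxN

end Cfsg.Agent.U33
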