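import Mathlib
import Cfsg.Agent.U33.CV

/-!
The Sylow `3`-subgroup is not commutative.
-/

set_option autoImplicit false

namespace Cfsg.Agent.U33

open Subgroup

theorem CV.nc {G : Type*} [Group G] [Finite G] {v : G → ℤ} (h : CV v) (h9 : ∀ g : G, orderOf g ≠ 9)
    (Q : Sylow 3 G) (hN : (Subgroup.normalizer ((Q : Subgroup G) : Set G)).index = 28) :
    ∃ a b : Q, a * b ≠ b * a := by
  classical
  by_contra! hc
  have := Fact.mk Nat.prime_three
  have := Fact.mk Nat.prime_two
  have := Fintype.ofFinite Q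
  have hQ : Nat.card Q = 27 := by
    obtain ⟨k, hk⟩ := Q.isPGroup'.exists_card_eq
    have h1 := (Q : Subgroup G).card_mul_index
    have h2 := Q.not_dvd_index
    rw [h.card, hk] at h1
    have h3 : k < 4 := by
      by_contra! e
      exact absurd ((pow_dvd_pow 3 e).trans (Dvd.intro _ h1)) (by norm_num)
    rw [hk]
    interval_cases k <;> omega
  have hQ' : (Finset.univ : Finset Q).card = 27 := by rw [Finset.card_univ, ← Nat.card_eq_fintype_card, hQ]
  have o3 : ∀ d : Q, d ≠ 1 → orderOf (d : G) = 3 := fun d hd => by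
    obtain ⟨k, hk, e⟩ := (Nat.dvd_prime_pow Nat.prime_three (m := 3)).1
      (show orderOf (d : G) ∣ 27 from hQ ▸ (Q : Subgroup G).orderOf_dvd_natCard d.2)
    interval_cases k
    · exact absurd (Subtype.ext (orderOf_eq_one_iff.1 e)) hd
    · exact e
    · exact absurd e (h9 _)
    · exact absurd (by rw [orderOf_pow' _ (by norm_num), e]; rfl) (h9 (d ^ 3))
  have c3 : ∀ d : Q, d ^ 2 = d⁻¹ := fun d => by
    rw [eq_inv_iff_mul_eq_one, ← pow_succ]
    by_cases hd : d = 1
    · rw [hd, one_pow]
    · exact Subtype.ext (show (d : G) ^ 3 = 1 from orderOf_dvd_iff_pow_eq_one.1 (o3 d hd).dvd)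
  have v1 : ∀ d : Q, d = 1 → v d = 6 := fun d e => by rw [e]; exact h.one
  have r2 : ∀ a b : Q, a ≠ 1 → b ≠ 1 → ∃ n : ℕ, 6 + 2 * (v a + v b + v (a * b : Q) + v (a * b⁻¹ : Q)) = 9 * n :=
    fun a b ha hb => by
      rw [← c3]
      exact h.rank2 a b (o3 a ha) (o3 b hb) (congrArg Subtype.val (hc a b))
  have h8 : 8 ∣ (Finset.univ.filter fun d : Q => v d = 0).card := by
    have h1 := (normalizer ((Q : Subgroup G) : Set G)).card_mul_index
    rw [hN, h.card] at h1
    obtain ⟨K, hK⟩ := Sylow.exists_subgroup_card_pow_prime (G := normalizer ((Q : Subgroup G) : Set G)) 2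
      (n := 3) (by omega)
    let _ : MulAction K {d : Q // v d = 0} :=
      { smul := fun k d => ⟨⟨k.1.1 * d.1.1 * k.1.1⁻¹, (mem_normalizer_iff.1 k.1.2 _).1 d.1.2⟩,
          (h.cls _ _).trans d.2⟩
        one_smul := fun d => Subtype.ext (Subtype.ext (show (1 : G) * _ * 1⁻¹ = _ by simp))
        mul_smul := fun k l d => Subtype.ext (Subtype.ext
          (show k.1.1 * l.1.1 * _ * (k.1.1 * l.1.1)⁻¹ = k.1.1 * (l.1.1 * _ * l.1.1⁻¹) * k.1.1⁻¹ by group)) }
    have h2 := Nat.card_congr (MulAction.selfEquivOrbitsQuotientProd (G := K) (X := {d : Q // v d = 0})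
      fun d => card_eq_one.1 (((IsPGroup.of_card hK).to_subgroup _).card_eq_or_dvd.resolve_right fun e => by
        obtain ⟨u, hu⟩ := exists_prime_orderOf_dvd_card' 2 e
        refine h.odd u.1.1.1 d.1.1 (by simpa only [orderOf_coe] using hu) (o3 _ fun e => ?_)
          (mul_inv_eq_iff_eq_mul.1 (congrArg (·.1.1) u.2)) d.2
        exact absurd ((v1 _ e).symm.trans d.2) (by norm_num)))
    rw [Nat.card_prod, hK, Nat.card_eq_fintype_card, Fintype.card_subtype] at h2
    exact h2 ▸ dvd_mul_left _ _
  obtain ⟨n, hn⟩ := h.sq Q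
  rw [Finset.sum_congr rfl (g := fun d : Q => 9 + (if d = 1 then 27 else 0) - if v d = 0 then 9 else 0)
    fun d _ => by
      by_cases hd : d = 1
      · simp [hd, h.one]
      · rcases h.three _ (o3 d hd) with e | e | e <;> simp [hd, e]] at hn
  simp only [Finset.sum_sub_distrib, Finset.sum_add_distrib, Finset.sum_const, hQ, hQ', Finset.sum_ite_eq',
    Finset.mem_univ, if_true, ← Finset.sum_filter, nsmul_eq_mul] at hn
  have h1 := Finset.card_filter_add_card_filter_not (s := Finset.univ) fun d : Q => v d = 0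
  rw [hQ'] at h1
  by_cases h0 : (Finset.univ.filter fun d : Q => v d = 0).card = 0
  · have n0 : ∀ d : Q, v d ≠ 0 := fun d => by
      simpa using Finset.filter_eq_empty_iff.1 (Finset.card_eq_zero.1 h0) (Finset.mem_univ d)
    obtain ⟨m, hm⟩ := h.sum Q
    rw [Finset.sum_congr rfl (g := fun d : Q => 3 + (if d = 1 then 3 else 0) - if v d = -3 then 6 else 0)
      fun d _ => by
        by_cases hd : d = 1
        · simp [hd, h.one]
        · rcases h.three _ (o3 d hd) with e | e | e
          exacts [by simp [hd, e], absurd e (n0 d), by simp [hd, e]]] at hm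
    simp only [Finset.sum_sub_distrib, Finset.sum_add_distrib, Finset.sum_const, hQ, hQ', Finset.sum_ite_eq',
      Finset.mem_univ, if_true, ← Finset.sum_filter, nsmul_eq_mul] at hm
    obtain ⟨a, ha⟩ := Finset.card_pos.1 (show 0 < (Finset.univ.filter fun d : Q => v d = -3).card by omega)
    obtain ⟨b, hb, e⟩ := Finset.exists_mem_notMem_of_card_lt_card
      (Finset.card_le_two.trans_lt (show 2 < (Finset.univ.filter fun d : Q => v d = -3).card by omega) :
        ({a, a⁻¹} : Finset Q).card < _)
    simp only [Finset.mem_filter, Finset.mem_univ, true_and, Finset.mem_insert, Finset.mem_singleton,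
      not_or] at ha hb e
    obtain ⟨k, hk⟩ := r2 a b (fun e => by have := v1 a e; omega) fun e => by have := v1 b e; omega
    have k1 := h.three _ (o3 (a * b) fun e' => e.2 (eq_inv_of_mul_eq_one_right e'))
    have k2 := h.three _ (o3 (a * b⁻¹) fun e' => e.1 (mul_inv_eq_one.1 e').symm)
    have k3 := n0 (a * b)
    have k4 := n0 (a * b⁻¹)
    omega
  · obtain ⟨a, ha⟩ := Finset.card_pos.1 (Nat.pos_of_ne_zero h0)
    set S := Finset.univ.filter fun d : Q => ¬ v d = 0 with hS
    obtain ⟨b, -, e⟩ := Finset.exists_mem_notMem_of_card_lt_card (s := S ∪ S.image (a⁻¹ * ·) ∪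
      S.image (·⁻¹ * a)) (t := Finset.univ) (by
        have i1 := Finset.card_union_le (S ∪ S.image (a⁻¹ * ·)) (S.image (·⁻¹ * a))
        have i2 := Finset.card_union_le S (S.image (a⁻¹ * ·))
        have i3 := Finset.card_image_le (s := S) (f := (a⁻¹ * ·))
        have i4 := Finset.card_image_le (s := S) (f := (·⁻¹ * a))
        omega)
    simp only [Finset.mem_union, Finset.mem_image, not_or, not_exists, not_and, hS, Finset.mem_filter,
      Finset.mem_univ, true_and, not_not] at e ha
    have k1 : v (a * b : Q) = 0 := by_contra fun k => e.1.2 _ k (by simp)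
    have k2 : v (a * b⁻¹ : Q) = 0 := by_contra fun k => e.2 _ k (by simp)
    obtain ⟨k, hk⟩ := r2 a b (fun e => by have := v1 a e; omega) fun e' => by
      have := v1 b e'; have := e.1.1; omega
    have := e.1.1
    omega

end Cfsg.Agent.U33
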