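import Mathlib
import Cfsg.Agent.ULT.G22
import Cfsg.Agent.S2366

/-! Basic facts on `G₂(2)`. -/

set_option autoImplicit false

namespace Cfsg.Agent.U33
open Cfsg.Lie Cfsg.Agent.Chev Cfsg.Agent.ULT Cfsg.Agent.Classical.SmallFields Matrix

theorem pm_spec (g : SU 3 F9 3) : orderOf g ∣ 12 ∨ orderOf g ∣ 8 ∨ orderOf g ∣ 7 := by
  obtain ⟨e⟩ := su_psu (K := F9) rfl
  haveI : CharP F9 3 := charP_of_injective_algebraMap (algebraMap (ZMod 3) F9).injective 3
  have h := S2366.result (F := F9) 3 (by decide) 3 rfl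
  have h1 : orderOf g ∈ Set.range (orderOf : PSU 3 F9 3 → ℕ) := ⟨e g, e.orderOf_eq g⟩
  rw [h] at h1
  simp only [Set.mem_union, Set.mem_setOf_eq] at h1
  norm_num at h1
  rcases h1 with ((h1 | h1) | h1) | h1
  · exact .inl (h1.trans (by decide))
  · exact .inl h1
  · exact .inr (.inl h1)
  · exact .inr (.inr h1)

theorem pm_trace (a g : SU 3 F9 3) (h : a * frG (-1) g = g * a) :
    star (g.1.1.trace) = g.1.1.trace := by
  have h1 : frG (-1) g = a⁻¹ * g * a := by rw [mul_assoc, ← h]; group
  have h2 : (frG (-1) g).1.1.trace = star (g.1.1.trace) := by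
    have : (frG (-1) g).1.1 = g.1.1.map star := rfl
    rw [this]
    simp [Matrix.trace, Fin.sum_univ_three]
  rw [← h2, h1]
  have h3 : (a⁻¹ * g * a).1.1 = (a⁻¹).1.1 * g.1.1 * a.1.1 := rfl
  have h4 : a.1.1 * (a⁻¹).1.1 = 1 := congrArg (·.1.1) (mul_inv_cancel a)
  rw [h3, Matrix.trace_mul_cycle, h4, Matrix.one_mul]

theorem pm_cent (c : SU 3 F9 3 ⋊[frG] ℤˣ)
    (h : ∀ g : SU 3 F9 3, c * SemidirectProduct.inl g = SemidirectProduct.inl g * c) : c = 1 := by
  obtain ⟨a, u⟩ := c
  have h1 : ∀ g, a * frG u g = g * a := fun g => by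
    simpa using congrArg SemidirectProduct.left (h g)
  rcases Int.units_eq_one_or u with rfl | rfl
  · have := simple_SU9
    have h2 : a ∈ Subgroup.center (SU 3 F9 3) := Subgroup.mem_center_iff.2 fun g => by
      simpa using (h1 g).symm
    rcases (inferInstance : (Subgroup.center (SU 3 F9 3)).Normal).eq_bot_or_eq_top with e | e
    · rw [e, Subgroup.mem_bot] at h2
      rw [h2]; rfl
    · exfalso
      have h3 := Subgroup.mem_center_iff.1 (e.ge (Subgroup.mem_top (u9 [1, 0, 0, 0, 2, 0, 0, 0, 2])))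
        (u9 [0, 1, 0, 1, 0, 0, 0, 0, 2])
      revert h3
      decide +kernel
  · exfalso
    have := pm_trace a (u9 [3, 0, 0, 0, 3, 0, 0, 0, 2]) (h1 _)
    revert this
    decide +kernel

theorem partM {F : Type*} [Field F] [Fintype F] (hF : Fintype.card F = 2) :
    Nat.card (chevG2.group F) = 12096 ∧
      (∀ g : chevG2.group F, orderOf g ≠ 9 ∧ orderOf g ≠ 21) ∧
      ∃ L : Subgroup (chevG2.group F), L.Normal ∧ IsSimpleGroup L ∧ Nat.card L = 6048 ∧
        Subgroup.centralizer (L : Set (chevG2.group F)) = ⊥ := by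
  obtain ⟨e, -⟩ := exists_G2 hF
  let ε := SemidirectProduct.rightHom.comp e.toMonoidHom
  have h1 : ε.ker.map e.toMonoidHom = SemidirectProduct.inl.range := by
    rw [SemidirectProduct.range_inl_eq_ker_rightHom, ← MonoidHom.comap_ker,
      Subgroup.map_comap_eq_self_of_surjective e.surjective]
  let f : ε.ker ≃* SU 3 F9 3 := ((e.subgroupMap _).trans (.subgroupCongr h1)).trans
    (MonoidHom.ofInjective SemidirectProduct.inl_injective).symm
  have := simple_SU9
  refine ⟨by rw [S1059.result hF]; decide, fun g => ?_, ε.ker, inferInstance, f.isSimpleGroup,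
    by rw [Nat.card_congr f.toEquiv, card_SU9 rfl], ?_⟩
  · have key : Odd (orderOf g) → orderOf g ∣ 12 ∨ orderOf g ∣ 8 ∨ orderOf g ∣ 7 := fun ho => by
      have h2 : g ∈ ε.ker := by
        have h3 : ε g ^ orderOf g = 1 := by rw [← map_pow, pow_orderOf_eq_one, map_one]
        rcases Int.units_eq_one_or (ε g) with h4 | h4
        · exact h4
        · rw [h4, ho.neg_one_pow] at h3
          exact absurd h3 (by decide)
      have := pm_spec (f ⟨g, h2⟩)
      rwa [f.orderOf_eq, Subgroup.orderOf_mk] at this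
    constructor
    · intro h
      have := key (by rw [h]; decide)
      rw [h] at this
      revert this; decide
    · intro h
      have := key (by rw [h]; decide)
      rw [h] at this
      revert this; decide
  · refine eq_bot_iff.2 fun c hc => Subgroup.mem_bot.2 ?_
    refine e.injective ((pm_cent (e c) fun g => ?_).trans (map_one e).symm)
    have h2 : e.symm (SemidirectProduct.inl g) ∈ ε.ker := by
      simp [ε, MonoidHom.mem_ker]
    have h3 := congrArg e (Subgroup.mem_centralizer_iff.1 hc _ h2)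
    simpa using h3.symm

end Cfsg.Agent.U33
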